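import Cfsg.Agent.ThreeDeg.Product
import Cfsg.Agent.Clifford.Ito
import Cfsg.Agent.Clifford.Monomial
import Cfsg.Agent.GaloisDegree.Basic
import Cfsg.Agent.CharBasics.ItoConverse
import Cfsg.Agent.IndFun.Basic

/-!
# Degrees over normal subgroups, and Taketa's step
-/

set_option autoImplicit false
set_option linter.unusedSectionVars false
set_option linter.style.haveILetI false

namespace CfsgLib.ThreeDeg

open Cfsg CfsgLib.CharBasics
open scoped commutatorElement

universe u

variable {G : Type u} [Group G] [Finite G]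

/-- The degree quotient along a normal subgroup divides the index. -/
theorem over_dvd {χ : G → ℂ} (hχ : IsIrrCharacter G χ) (A : Subgroup G) [A.Normal] (φ : IrrCharacter A)
    (hne : ∀ [Fintype A], classInner (fun n : A => χ n) (φ : A → ℂ) ≠ 0) :
    ∃ t : ℕ, t ∣ A.index ∧ charDegree χ = t * charDegree (φ : A → ℂ) ∧
      (Clifford.inertia (φ : A → ℂ)).index ∣ t := by
  classical
  haveI := Fintype.ofFinite G
  haveI := Fintype.ofFinite A
  obtain ⟨e, he⟩ := classInner_characters_nat
    (CharBasics.isCharacter_restrict (isCharacter_of_irr hχ) A) (isCharacter_of_irr φ.2)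
  change classInner (fun n : A => χ n) (φ : A → ℂ) = (e : ℂ) at he
  have hAT : A ≤ Clifford.inertia (φ : A → ℂ) :=
    Clifford.le_inertia (isClassFunction (isCharacter_of_irr φ.2))
  set T := Clifford.inertia (φ : A → ℂ) with hT
  haveI := Fintype.ofFinite T
  obtain ⟨ψ, hψ, -, -, hψN⟩ := Clifford.exists_inertia_correspondent hχ φ.2 hne T rfl hAT
  let E : A.subgroupOf T ≃* A := Subgroup.subgroupOfEquivOfLe hAT
  have hφ' : IsIrrCharacter (A.subgroupOf T) (fun m => (φ : A → ℂ) (E m)) :=
    Clifford.isIrrCharacter_comp φ.2 E.toMonoidHom E.surjective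
  have hdvd : e ∣ (A.subgroupOf T).index := by
    refine Clifford.charMult_dvd_index hψ hφ'
      (fun t => funext fun m => congrFun (Clifford.mem_inertia.mp t.2) (E m)) e fun m => ?_
    have := congrFun hψN (E m)
    rw [he] at this
    exact this
  have h1 := Clifford.restrict_one_eq hχ φ.2 hne
  rw [he, apply_one (isCharacter_of_irr hχ), apply_one (isCharacter_of_irr φ.2), ← hT, ← Nat.cast_mul,
    ← Nat.cast_mul, Nat.cast_inj] at h1
  refine ⟨e * T.index, ?_, h1, Dvd.intro_left e rfl⟩
  rw [← Subgroup.relIndex_mul_index hAT]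
  exact Nat.mul_dvd_mul_right hdvd T.index

theorem exists_over_dvd (A : Subgroup G) [A.Normal] (φ : IrrCharacter A) :
    ∃ (χ : IrrCharacter G) (t : ℕ), t ∣ A.index ∧ charDegree (χ : G → ℂ) = t * charDegree (φ : A → ℂ) ∧
      (Clifford.inertia (φ : A → ℂ)).index ∣ t := by
  obtain ⟨χ, e, he0, -, he⟩ := ItoConverse.exists_over A φ
  obtain ⟨t, h⟩ := over_dvd χ.2 A φ fun {_} => by rw [he]; exact Nat.cast_ne_zero.2 he0.ne'
  exact ⟨χ, t, h⟩

/-- Taketa's step: a normal subgroup killed by every degree below `|G : H|` lies in `H`. -/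
theorem le_of_small (H D : Subgroup G)
    (hD : ∀ χ : IrrCharacter G, charDegree (χ : G → ℂ) < H.index → ∀ y ∈ D, (χ : G → ℂ) y = (χ : G → ℂ) 1) :
    D ≤ H := by
  classical
  haveI := Fintype.ofFinite G
  rcases Nat.lt_or_ge H.index 2 with hlt | hge
  · have := Subgroup.index_eq_one.mp
      (show H.index = 1 by have := Subgroup.index_ne_zero_of_finite (H := H); omega)
    rw [this]; exact le_top
  intro y hy
  obtain ⟨r, f, hf, hdec⟩ := exists_decomp (isCharacter_indFun H (θ := fun _ : H => (1 : ℂ))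
    (isCharacter_of_irr isIrrCharacter_one))
  haveI := Fintype.ofFinite H
  obtain ⟨i0, hi0⟩ : ∃ i, f i = fun _ => 1 := by
    by_contra hh
    push Not at hh
    have h1 := classInner_indFun H (fun _ : H => (1 : ℂ)) (f := fun _ : G => (1 : ℂ)) (fun _ _ => rfl)
    rw [classInner_self isIrrCharacter_one, hdec, classInner_sum_left] at h1
    exact zero_ne_one ((Finset.sum_eq_zero fun i _ =>
      classInner_ne (hf i) isIrrCharacter_one (hh i)).symm.trans h1)
  have h1 := congrFun hdec 1
  rw [indFun_apply_one, mul_one, Finset.sum_apply,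
    Finset.sum_congr rfl (fun i _ => apply_one (isCharacter_of_irr (hf i))), ← Nat.cast_sum, Nat.cast_inj] at h1
  have hi0d : charDegree (f i0) = 1 := by simp [charDegree, hi0]
  have hall : ∀ i, f i y = f i 1 := by
    intro i
    refine hD ⟨f i, hf i⟩ ?_ y hy
    by_cases hi : i = i0
    · subst hi
      change charDegree (f i) < _
      omega
    · have h2 := Finset.sum_le_sum_of_subset (f := fun i => charDegree (f i)) (Finset.subset_univ {i0, i})
      rw [Finset.sum_pair (Ne.symm hi), ← h1] at h2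
      change charDegree (f i) < _
      omega
  have h3 : indFun H (fun _ => (1 : ℂ)) y = (H.index : ℂ) := by
    have h5 := congrFun hdec 1
    rw [indFun_apply_one, mul_one, Finset.sum_apply] at h5
    rw [hdec, Finset.sum_apply, h5]
    exact Finset.sum_congr rfl fun i _ => hall i
  rw [IndFun.indFun_const_one_eq_card_fixedBy, Nat.cast_inj, Subgroup.index] at h3
  have h4 : MulAction.fixedBy (G ⧸ H) y = Set.univ :=
    Set.eq_of_subset_of_ncard_le (Set.subset_univ _) (by rw [Set.ncard_univ, ← Nat.card_coe_set_eq, h3])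
  have := (IndFun.mk_mem_fixedBy_iff H y 1).mp (h4 ▸ Set.mem_univ _)
  simpa using this

/-- A monomial character kills the derived subgroup of what its inducing subgroup contains. -/
theorem kills_of_ind [Fintype G] {χ : G → ℂ} (H : Subgroup G) (lam : H →* ℂˣ)
    (hχ : χ = indFun H (fun h => (lam h : ℂ))) (D : Subgroup G) [D.Normal] (hDH : D ≤ H) :
    ∀ y ∈ ⁅D, D⁆, χ y = χ 1 := by
  classical
  intro y hy
  have hc : ⁅D, D⁆ ≤ lam.ker.map H.subtype := by
    rw [Subgroup.commutator_le]
    intro a ha b hb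
    refine ⟨⁅(⟨a, hDH ha⟩ : H), ⟨b, hDH hb⟩⁆, ?_, rfl⟩
    rw [SetLike.mem_coe, MonoidHom.mem_ker, map_commutatorElement,
      commutatorElement_eq_one_iff_mul_comm.2 (mul_comm _ _)]
  rw [hχ, indFun_apply_one, map_one, Units.val_one, mul_one, indFun,
    Finset.sum_congr rfl (g := fun _ => (1 : ℂ)) fun x _ => ?_,
    Finset.sum_const, Finset.card_univ, nsmul_one, ← Nat.card_eq_fintype_card, ← H.index_mul_card, Nat.cast_mul,
    mul_comm (H.index : ℂ), inv_mul_cancel_left₀ (Nat.cast_ne_zero.mpr Nat.card_pos.ne')]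
  have hyx : x⁻¹ * y * x ∈ ⁅D, D⁆ := by
    simpa using (inferInstance : ⁅D, D⁆.Normal).conj_mem y hy x⁻¹
  obtain ⟨z, hz, hzx⟩ := hc hyx
  rw [← hzx, Subgroup.coe_subtype, IndFun.extendByZero_mem _ z.2]
  simpa using congrArg Units.val (MonoidHom.mem_ker.1 hz)

/-- Taketa for a nilpotent group with three degrees. -/
theorem nilpotent_derived [Group.IsNilpotent G] {a b : ℕ} (h : Three a b G) (hab : a ≤ b) :
    derivedSeries G 3 = ⊥ ∧ ∀ χ : IrrCharacter G, charDegree (χ : G → ℂ) ≤ a →
      ∀ y ∈ derivedSeries G 2, (χ : G → ℂ) y = (χ : G → ℂ) 1 := by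
  classical
  haveI := Fintype.ofFinite G
  haveI := derivedSeries_normal G 1
  haveI := derivedSeries_normal G 2
  have hlin : ∀ χ : IrrCharacter G, charDegree (χ : G → ℂ) = 1 → ∀ y ∈ derivedSeries G 1,
      (χ : G → ℂ) y = (χ : G → ℂ) 1 := fun χ h1 y hy =>
    GaloisDegree.apply_commutator_of_linear χ.2 h1 (by rwa [derivedSeries_one] at hy)
  have hmono : ∀ χ : IrrCharacter G, ∃ (H : Subgroup G) (lam : H →* ℂˣ),
      (χ : G → ℂ) = indFun H (fun x => (lam x : ℂ)) ∧ H.index = charDegree (χ : G → ℂ) := by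
    intro χ
    obtain ⟨H, lam, hlam⟩ := Clifford.monomial_of_isNilpotent _ G rfl (χ : G → ℂ) χ.2
    refine ⟨H, lam, hlam, ?_⟩
    have h1 := congrFun hlam 1
    rw [indFun_apply_one, map_one, Units.val_one, mul_one, apply_one_irr, Nat.cast_inj] at h1
    exact h1.symm
  have h2 : ∀ χ : IrrCharacter G, charDegree (χ : G → ℂ) ≤ a →
      ∀ y ∈ derivedSeries G 2, (χ : G → ℂ) y = (χ : G → ℂ) 1 := by
    intro χ hχ y hy
    obtain ⟨H, lam, hlam, hH⟩ := hmono χ
    refine kills_of_ind H lam hlam (derivedSeries G 1) (le_of_small H _ fun η hη => ?_) y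
      (by rwa [derivedSeries_succ] at hy)
    exact hlin η ((h η).resolve_right fun h' => by rcases h' with h' | h' <;> omega)
  refine ⟨(Subgroup.eq_bot_iff_forall _).2 fun y hy => ?_, h2⟩
  by_contra hy1
  obtain ⟨χ, hχ⟩ := GaloisDegree.exists_apply_ne hy1
  obtain ⟨H, lam, hlam, hH⟩ := hmono χ
  refine hχ (kills_of_ind H lam hlam (derivedSeries G 2) (le_of_small H _ fun η hη z hz => ?_) y
    (by rwa [derivedSeries_succ] at hy))
  have hχle : charDegree (χ : G → ℂ) = 1 ∨ charDegree (χ : G → ℂ) ≤ b := by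
    rcases h χ with h | h | h <;> omega
  rcases h η with h1 | h1 | h1
  · exact hlin η h1 z (derivedSeries_antitone G (by norm_num) hz)
  · exact h2 η h1.le z hz
  · have := charDegree_pos η.2
    rcases hχle with h' | h' <;> omega

/-- Degrees of a quotient. -/
theorem Three.quotient {a b : ℕ} (h : Three a b G) (N : Subgroup G) [N.Normal] : Three a b (G ⧸ N) := fun ψ => by
  have h' := h ⟨fun x => (ψ : G ⧸ N → ℂ) (QuotientGroup.mk' N x),
    Clifford.isIrrCharacter_comp ψ.2 _ (QuotientGroup.mk'_surjective N)⟩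
  simpa [charDegree] using h'

omit [Finite G] in
theorem derived_le_of_quotient (N : Subgroup G) [N.Normal] {k : ℕ} (h : derivedSeries (G ⧸ N) k = ⊥) :
    derivedSeries G k ≤ N := by
  have h1 := map_derivedSeries_le_derivedSeries (QuotientGroup.mk' N) k
  rw [h, le_bot_iff, Subgroup.map_eq_bot_iff, QuotientGroup.ker_mk'] at h1
  exact h1

omit [Finite G] in
theorem derived_add_le (L : Subgroup G) {i : ℕ} (j : ℕ) (h : derivedSeries G i ≤ L) :
    derivedSeries G (i + j) ≤ (derivedSeries L j).map L.subtype := by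
  induction j with
  | zero => simpa [derivedSeries_zero, ← MonoidHom.range_eq_map] using h
  | succ j ih =>
    rw [← add_assoc, derivedSeries_succ, derivedSeries_succ, Subgroup.map_commutator]
    exact Subgroup.commutator_mono ih ih

end CfsgLib.ThreeDeg
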