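import Cfsg.Agent.ThreeDeg.Basic
import Cfsg.Agent.Clifford.Gallagher
import Cfsg.Agent.Clifford.CoprimeDegree
import Cfsg.Agent.DegreeOneP.TwoDerived
import Cfsg.Agent.Hall.StructBatch
import Cfsg.Agent.S0043
import Mathlib.GroupTheory.FiniteAbelian.Duality

/-!
# Solvable groups with two coprime nonlinear degrees have derived length at most three
-/

set_option autoImplicit false
set_option linter.unusedSectionVars false
set_option linter.style.haveILetI false

namespace CfsgLib.ThreeDeg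

open Cfsg CfsgLib.CharBasics
open scoped commutatorElement

universe u

variable {G : Type u} [Group G] [Finite G]

theorem twoDeg_derived {m : ℕ} (h : DegreeOneP.TwoDeg m G) : derivedSeries G 2 = ⊥ := by
  have hcomm : ∀ x ∈ commutator G, ∀ y ∈ commutator G, x * y = y * x := by
    by_cases hex : (∃ χ : IrrCharacter G, charDegree (χ : G → ℂ) = m) ∧ m ≠ 1
    · exact DegreeOneP.derived_commutative h hex.1 hex.2
    · have hlin : ∀ χ : IrrCharacter G, charDegree (χ : G → ℂ) = 1 := fun χ => by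
        rcases h χ with h1 | h1
        · exact h1
        · by_contra hne
          exact hex ⟨⟨χ, h1⟩, fun e => hne (h1.trans e)⟩
      haveI := ItoConverse.isMulCommutative_of_all_linear hlin
      exact fun x _ y _ => mul_comm' x y
  rw [derivedSeries_succ, derivedSeries_one, eq_bot_iff, Subgroup.commutator_le]
  intro x hx y hy
  rw [Subgroup.mem_bot, commutatorElement_eq_one_iff_mul_comm]
  exact hcomm x hx y hy

/-- A linear character fixing `θ` under multiplication is trivial if its kernel has index prime to `θ 1`. -/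
theorem eq_one_of_mul_eq {N : Type u} [Group N] [Finite N] (θ : IrrCharacter N) (ν : N →* ℂˣ) (M : Subgroup N)
    [M.Normal] (hM : M ≤ ν.ker) (hcop : (charDegree (θ : N → ℂ)).Coprime M.index)
    (h : ∀ n, (θ : N → ℂ) n * (ν n : ℂ) = (θ : N → ℂ) n) : ν = 1 := by
  classical
  haveI := Fintype.ofFinite N
  set K := ν.ker with hK
  haveI := Fintype.ofFinite K
  have hK' : (charDegree (θ : N → ℂ)).Coprime K.index :=
    hcop.coprime_dvd_right (Subgroup.index_dvd_of_le hM)
  obtain ⟨φ, hφ⟩ := exists_restrict_constituent K θ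
  obtain ⟨-, hres⟩ := CoprimeDegree.restrict_of_coprime hK' (θ := φ) (by
    rw [classInner_comm, Ne, map_eq_zero]; exact hφ)
  have hvan : ∀ n : N, n ∉ K → (θ : N → ℂ) n = 0 := fun n hn => by
    by_contra h0
    refine hn (MonoidHom.mem_ker.2 (Units.ext ?_))
    exact (mul_eq_left₀ h0).1 (h n)
  have h1 := classInner_self θ.2
  have h2 := classInner_self φ.2
  rw [classInner_eq] at h1 h2
  have hsum : ∑ n : N, (θ : N → ℂ) n * (starRingEnd ℂ) ((θ : N → ℂ) n) =
      ∑ k : K, (φ : K → ℂ) k * (starRingEnd ℂ) ((φ : K → ℂ) k) := by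
    rw [← Finset.sum_subset (Finset.subset_univ (Finset.univ.filter (fun n : N => n ∈ K)))
        (fun n _ hn => by rw [hvan n (by simpa using hn), zero_mul]),
      Finset.sum_subtype (p := fun n : N => n ∈ K) _ (by simp)]
    exact Finset.sum_congr rfl fun k _ => by rw [← hres]
  rw [hsum, inv_mul_eq_one₀ (Nat.cast_ne_zero.2 Nat.card_pos.ne')] at h1
  rw [inv_mul_eq_one₀ (Nat.cast_ne_zero.2 Nat.card_pos.ne'), ← h1, Nat.cast_inj] at h2
  have htop : K = ⊤ := Subgroup.eq_top_of_card_eq _ h2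
  exact MonoidHom.ext fun n => MonoidHom.mem_ker.1 (show n ∈ ν.ker from hK ▸ htop ▸ Subgroup.mem_top n)

theorem affine (K N : Subgroup G) [K.Normal] [N.Normal]
    (hab : ∀ x ∈ N, ∀ y ∈ N, x * y * x⁻¹ * y⁻¹ ∈ K)
    (hfix : ∀ g : G, g ∉ N → ∀ n ∈ N, g * n * g⁻¹ * n⁻¹ ∈ K → n ∈ K)
    (hcard : N.index ≤ K.relIndex N) (θ : IrrCharacter N)
    (hθ : (charDegree (θ : N → ℂ)).Coprime (K.relIndex N)) :
    ∃ θ' : IrrCharacter N, charDegree (θ' : N → ℂ) = charDegree (θ : N → ℂ) ∧
      Clifford.inertia (θ' : N → ℂ) = N := by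
  classical
  haveI := Fintype.ofFinite G
  haveI := Fintype.ofFinite N
  set K' := K.subgroupOf N with hK'
  haveI : IsMulCommutative (N ⧸ K') := ⟨⟨fun a b => by
    induction a using QuotientGroup.induction_on with | _ a => ?_
    induction b using QuotientGroup.induction_on with | _ b => ?_
    rw [← commutatorElement_eq_one_iff_mul_comm, commutatorElement_def, ← QuotientGroup.mk_inv,
      ← QuotientGroup.mk_inv, ← QuotientGroup.mk_mul, ← QuotientGroup.mk_mul, ← QuotientGroup.mk_mul,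
      QuotientGroup.eq_one_iff]
    exact hab a a.2 b b.2⟩⟩
  letI : CommGroup (N ⧸ K') := { (inferInstance : Group (N ⧸ K')) with mul_comm := fun a b => mul_comm' a b }
  haveI : NeZero (Monoid.exponent (N ⧸ K')) := ⟨Monoid.exponent_ne_zero_of_finite⟩
  haveI : HasEnoughRootsOfUnity ℂ (Monoid.exponent (N ⧸ K')) := inferInstance
  -- the twists
  let tw : (N ⧸ K' →* ℂˣ) → IrrCharacter N := fun l =>
    ⟨fun n => (Units.coeHom ℂ).comp (l.comp (QuotientGroup.mk' K')) n * (θ : N → ℂ) n,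
      Clifford.isIrrCharacter_linear_mul θ.2 _⟩
  have htw : ∀ l n, (tw l : N → ℂ) n = (l (n : N ⧸ K') : ℂ) * (θ : N → ℂ) n := fun l n => rfl
  by_contra hcon
  push Not at hcon
  have hdeg : ∀ l, charDegree (tw l : N → ℂ) = charDegree (θ : N → ℂ) := fun l => by
    unfold charDegree
    rw [htw, QuotientGroup.mk_one, map_one, Units.val_one, one_mul]
  have hle : ∀ l, N ≤ Clifford.inertia (tw l : N → ℂ) := fun l =>
    Clifford.le_inertia (isClassFunction (isCharacter_of_irr (tw l).2))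
  have hex : ∀ l, ∃ g : G, g ∉ N ∧ g ∈ Clifford.inertia (tw l : N → ℂ) := by
    intro l
    by_contra hno
    push Not at hno
    exact hcon (tw l) (hdeg l) (le_antisymm (fun g hg => by_contra fun hg' => hno g hg' hg) (hle l))
  choose g hgN hgI using hex
  have huniq : ∀ (x : G), x ∉ N → ∀ l₁ l₂, x ∈ Clifford.inertia (tw l₁ : N → ℂ) →
      x ∈ Clifford.inertia (tw l₂ : N → ℂ) → l₁ = l₂ := by
    intro x hx l₁ l₂ h₁ h₂
    let c : N →* N := (MulAut.conjNormal x : MulAut N).toMonoidHom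
    let π := QuotientGroup.mk' K'
    set μ : N →* ℂˣ := (l₁ * l₂⁻¹).comp π with hμ
    have hc : ∀ n : N, (⟨x * n * x⁻¹, ‹N.Normal›.conj_mem (n : G) n.2 x⟩ : N) = c n := fun n =>
      Subtype.ext (MulAut.conjNormal_apply x n).symm
    have e₁ : ∀ n : N, (l₁ (π (c n)) : ℂ) * (θ : N → ℂ) (c n) = (l₁ (π n) : ℂ) * (θ : N → ℂ) n := fun n => by
      have := congrFun (Clifford.mem_inertia.1 h₁) n
      rwa [Clifford.conjFun_apply, htw, htw, hc] at this
    have e₂ : ∀ n : N, (l₂ (π (c n)) : ℂ) * (θ : N → ℂ) (c n) = (l₂ (π n) : ℂ) * (θ : N → ℂ) n := fun n => by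
      have := congrFun (Clifford.mem_inertia.1 h₂) n
      rwa [Clifford.conjFun_apply, htw, htw, hc] at this
    have hν : μ.comp c * μ⁻¹ = 1 := by
      refine eq_one_of_mul_eq θ _ K' (fun k hk => ?_) hθ fun n => ?_
      · have hk1 : (k : N ⧸ K') = 1 := (QuotientGroup.eq_one_iff k).2 hk
        have hk2 : π (c k) = 1 := (QuotientGroup.eq_one_iff _).2 (by
          rw [hK', Subgroup.mem_subgroupOf]
          show ((MulAut.conjNormal x k : N) : G) ∈ K
          rw [MulAut.conjNormal_apply]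
          exact ‹K.Normal›.conj_mem _ (Subgroup.mem_subgroupOf.1 hk) x)
        have hk3 : π k = 1 := hk1
        rw [MonoidHom.mem_ker, MonoidHom.mul_apply, MonoidHom.inv_apply, MonoidHom.comp_apply, hμ,
          MonoidHom.comp_apply, MonoidHom.comp_apply, hk2, hk3, map_one, inv_one, mul_one]
      · by_cases h0 : (θ : N → ℂ) (c n) = 0
        · have := e₁ n
          rw [h0, mul_zero] at this
          rw [(mul_eq_zero.1 this.symm).resolve_left (Units.ne_zero _), zero_mul]
        have hθn : (θ : N → ℂ) n ≠ 0 := fun h => by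
          have := e₁ n
          rw [h, mul_zero] at this
          exact h0 ((mul_eq_zero.1 this).resolve_left (Units.ne_zero _))
        have h3 : (l₁ (π (c n)) : ℂ) * (l₂ (π n) : ℂ) = (l₂ (π (c n)) : ℂ) * (l₁ (π n) : ℂ) := by
          refine mul_right_cancel₀ (mul_ne_zero hθn h0) ?_
          linear_combination ((θ : N → ℂ) n * (l₂ (π n) : ℂ)) * e₁ n - ((θ : N → ℂ) n * (l₁ (π n) : ℂ)) * e₂ n
        have h4 : l₁ (π (c n)) * l₂ (π n) = l₂ (π (c n)) * l₁ (π n) := Units.ext (by simpa using h3)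
        have h5 : (μ.comp c * μ⁻¹) n = 1 := by
          simp only [hμ, MonoidHom.mul_apply, MonoidHom.comp_apply, MonoidHom.inv_apply, mul_inv_eq_one]
          rw [mul_inv_eq_iff_eq_mul, mul_right_comm, eq_mul_inv_iff_mul_eq, h4, mul_comm]
        rw [h5, Units.val_one, mul_one]
    -- `μ` is invariant under a fixed point free map
    let E : N →* N ⧸ K' :=
      { toFun := fun n => π (c n) * (π n)⁻¹
        map_one' := by simp
        map_mul' := fun a b => by simp only [map_mul, mul_inv_rev]; ac_rfl }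
    have hEK : K' ≤ E.ker := fun k hk => by
      have hk1 : π k = 1 := (QuotientGroup.eq_one_iff k).2 hk
      have hk2 : π (c k) = 1 := (QuotientGroup.eq_one_iff _).2 (by
        rw [hK', Subgroup.mem_subgroupOf]
        show ((MulAut.conjNormal x k : N) : G) ∈ K
        rw [MulAut.conjNormal_apply]
        exact ‹K.Normal›.conj_mem _ (Subgroup.mem_subgroupOf.1 hk) x)
      simp [MonoidHom.mem_ker, E, hk1, hk2]
    let E' : N ⧸ K' →* N ⧸ K' := QuotientGroup.lift K' E hEK
    have hinj : Function.Injective E' := by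
      rw [← MonoidHom.ker_eq_bot_iff, eq_bot_iff]
      intro q hq
      induction q using QuotientGroup.induction_on with
      | _ n =>
        rw [MonoidHom.mem_ker] at hq
        change π (c n) * (π n)⁻¹ = 1 at hq
        rw [← map_inv, ← map_mul, QuotientGroup.mk'_apply, QuotientGroup.eq_one_iff, hK',
          Subgroup.mem_subgroupOf, Subgroup.coe_mul, Subgroup.coe_inv] at hq
        change ((MulAut.conjNormal x n : N) : G) * _ ∈ K at hq
        rw [MulAut.conjNormal_apply] at hq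
        rw [Subgroup.mem_bot, QuotientGroup.eq_one_iff, hK', Subgroup.mem_subgroupOf]
        exact hfix x hx n n.2 hq
    refine MonoidHom.ext fun q => mul_inv_eq_one.1 ?_
    obtain ⟨r, rfl⟩ := Finite.surjective_of_injective hinj q
    induction r using QuotientGroup.induction_on with
    | _ n =>
      have := DFunLike.congr_fun hν n
      simp only [hμ, MonoidHom.mul_apply, MonoidHom.comp_apply, MonoidHom.inv_apply, MonoidHom.one_apply] at this
      show l₁ (π (c n) * (π n)⁻¹) * (l₂ (π (c n) * (π n)⁻¹))⁻¹ = 1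
      rw [← this]
      simp only [map_mul, map_inv, mul_inv_rev, inv_inv]
      ac_rfl
  have hinj : Function.Injective fun l => (⟨(g l : G ⧸ N), fun h => hgN l ((QuotientGroup.eq_one_iff _).1 h)⟩ :
      {q : G ⧸ N // q ≠ 1}) := by
    intro l₁ l₂ h
    have h' : (g l₁)⁻¹ * g l₂ ∈ N := QuotientGroup.eq.1 (congrArg Subtype.val h)
    refine huniq (g l₁) (hgN l₁) l₁ l₂ (hgI l₁) ?_
    have := mul_mem (hgI l₂) (inv_mem (hle l₂ h'))
    rwa [mul_inv_rev, inv_inv, ← mul_assoc, mul_inv_cancel, one_mul] at this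
  haveI := Fintype.ofFinite (G ⧸ N)
  haveI : Finite (N ⧸ K' →* ℂˣ) := Finite.of_injective _ hinj
  have h1 := Nat.card_le_card_of_injective _ hinj
  rw [CommGroup.card_monoidHom_of_hasEnoughRootsOfUnity, ← Subgroup.index_eq_card] at h1
  have h2 : Nat.card {q : G ⧸ N // q ≠ 1} < N.index := by
    rw [Subgroup.index_eq_card]
    exact Finite.card_subtype_lt (x := (1 : G ⧸ N)) (by simp)
  have h3 : K'.index = K.relIndex N := rfl
  omega

/-- The shape of a minimal nonabelian quotient of a solvable group. -/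
theorem quotient_shape {Q : Type u} [Group Q] [Finite Q] [Group.IsSolvable Q] (hQ : ¬ IsMulCommutative Q)
    (hmin : ∀ M : Subgroup Q, M.Normal → M ≠ ⊥ → commutator Q ≤ M) :
    (∃ q, q.Prime ∧ IsPGroup q Q) ∨ (1 < (commutator Q).index ∧
      (∃ q, q.Prime ∧ IsPGroup q ↥(commutator Q) ∧ ¬ q ∣ (commutator Q).index) ∧
      (∀ x ∈ commutator Q, ∀ y ∈ commutator Q, x * y = y * x) ∧
      (∀ g : Q, g ∉ commutator Q → ∀ n ∈ commutator Q, g * n * g⁻¹ = n → n = 1) ∧
      (commutator Q).index ≤ Nat.card (commutator Q)) := by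
  classical
  set A := commutator Q with hA
  have hA0 : A ≠ ⊥ := fun h => hQ ⟨⟨fun a b => commutatorElement_eq_one_iff_mul_comm.1 (by
    have : ⁅a, b⁆ ∈ A := by
      rw [hA, commutator_def]; exact Subgroup.commutator_mem_commutator (Subgroup.mem_top a) (Subgroup.mem_top b)
    simpa [h] using this)⟩⟩
  obtain ⟨hAc, q, hq, hAq⟩ := Cfsg.Agent.S0043.result A hA0 fun M hM hMA => by
    by_cases h : M = ⊥
    exacts [.inl h, .inr (le_antisymm hMA (hmin M hM h))]
  have hcomm : ∀ x ∈ A, ∀ y ∈ A, x * y = y * x := fun x hx y hy =>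
    congrArg Subtype.val (hAc.is_comm.comm (⟨x, hx⟩ : A) ⟨y, hy⟩)
  haveI := Fact.mk hq
  have hAp : IsPGroup q A := fun x => ⟨1, Subtype.ext (by simpa using hAq x x.2)⟩
  have hqA : q ∣ Nat.card A := by
    haveI : Nontrivial A := (Subgroup.nontrivial_iff_ne_bot A).2 hA0
    obtain ⟨n, hn0, hn⟩ := (IsPGroup.nontrivial_iff_card hAp).1 inferInstance
    exact hn ▸ dvd_pow_self q hn0.ne' 
  by_cases hAZ : A ≤ Subgroup.center Q
  · left
    refine ⟨q, hq, ?_⟩
    haveI : Group.IsNilpotent Q := by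
      refine Subgroup.isNilpotent_of_ker_le_center (Abelianization.of : Q →* Abelianization Q) ?_
      rwa [Abelianization.ker_of]
    refine IsPGroup.of_card (n := (Nat.card Q).primeFactorsList.length) (Nat.eq_prime_pow_of_unique_prime_dvd
      Nat.card_pos.ne' fun {r} hr hrd => ?_)
    by_contra hne
    haveI := Fact.mk hr
    obtain ⟨R⟩ : Nonempty (Sylow r Q) := inferInstance
    have hR0 : (R : Subgroup Q) ≠ ⊥ := R.ne_bot_of_dvd_card hrd
    have hle := hmin R inferInstance hR0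
    obtain ⟨k, hk⟩ := R.2.exists_card_eq
    exact hne ((Nat.prime_dvd_prime_iff_eq hq hr).1 (hq.dvd_of_dvd_pow
      (hk ▸ hqA.trans (Subgroup.card_dvd_of_le hle)))).symm
  right
  have hZ : Subgroup.center Q = ⊥ := by
    by_contra h
    exact hAZ (hmin _ inferInstance h)
  have hconjA : ∀ g x : Q, g * x * g⁻¹ * x⁻¹ ∈ A := fun g x => by
    rw [hA, commutator_def]
    exact Subgroup.commutator_mem_commutator (Subgroup.mem_top g) (Subgroup.mem_top x)
  -- outside the centraliser nothing of `A` is fixed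
  have hfpf : ∀ g : Q, g ∉ Subgroup.centralizer (A : Set Q) → ∀ n ∈ A, g * n * g⁻¹ = n → n = 1 := by
    intro g hg n hn hgn
    let F : Subgroup Q := A ⊓ Subgroup.centralizer {g}
    haveI : F.Normal := ⟨fun y hy x => by
      obtain ⟨hy1, hy2⟩ := Subgroup.mem_inf.1 hy
      have hAn : A.Normal := inferInstance
      have hy' : x * y * x⁻¹ ∈ A := hAn.conj_mem y hy1 x
      refine Subgroup.mem_inf.2 ⟨hy', ?_⟩
      rw [Subgroup.mem_centralizer_singleton_iff] at hy2 ⊢
      set a := g * x⁻¹ * g⁻¹ * x with ha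
      have haA : a ∈ A := by rw [ha]; simpa using hconjA g x⁻¹
      have e : g * (x * y * x⁻¹) * g⁻¹ = x * (a⁻¹ * (g * y * g⁻¹) * a) * x⁻¹ := by rw [ha]; group
      have hgy : g * y * g⁻¹ = y := by rw [← hy2, mul_inv_cancel_right]
      rw [hgy, mul_assoc a⁻¹, hcomm y hy1 a haA, inv_mul_cancel_left] at e
      exact (mul_inv_eq_iff_eq_mul.1 e).symm⟩
    by_contra hn1
    have hnF : n ∈ F := Subgroup.mem_inf.2 ⟨hn, Subgroup.mem_centralizer_singleton_iff.2
      (mul_inv_eq_iff_eq_mul.1 hgn).symm⟩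
    have hle := hmin F inferInstance fun h => hn1 (by rw [h] at hnF; exact Subgroup.mem_bot.1 hnF)
    refine hg (Subgroup.mem_centralizer_iff.2 fun y hy => ?_)
    exact Subgroup.mem_centralizer_singleton_iff.1 (hle hy).2
  obtain ⟨z, hz⟩ : ∃ z : Q, z ∉ Subgroup.centralizer (A : Set Q) := by
    by_contra hno
    push Not at hno
    exact hAZ fun y hy => Subgroup.mem_center_iff.2 fun g => (Subgroup.mem_centralizer_iff.1 (hno g) y hy).symm
  have hCA : ∀ c ∈ Subgroup.centralizer (A : Set Q), c ∈ A := by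
    intro c hc
    have hcy : ∀ y ∈ A, y * c = c * y := Subgroup.mem_centralizer_iff.1 hc
    let f : A → A := fun a => ⟨z * a * z⁻¹ * (a : Q)⁻¹, hconjA z a⟩
    have hf : Function.Injective f := fun a b hab => by
      have hzA : ∀ a : A, z * (a : Q) * z⁻¹ ∈ A := fun a => (inferInstance : A.Normal).conj_mem (a : Q) a.2 z
      have h : z * (a : Q) * z⁻¹ * (a : Q)⁻¹ = z * b * z⁻¹ * (b : Q)⁻¹ := congrArg Subtype.val hab
      have h2 : z * ((b : Q)⁻¹ * a) * z⁻¹ = (b : Q)⁻¹ * a := by
        have h3 : z * (a : Q) * z⁻¹ = z * b * z⁻¹ * ((b : Q)⁻¹ * a) := by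
          rw [← mul_assoc, ← h, inv_mul_cancel_right]
        rw [show z * ((b : Q)⁻¹ * a) * z⁻¹ = (z * b * z⁻¹)⁻¹ * (z * a * z⁻¹) by group, h3, inv_mul_cancel_left]
      have := hfpf z hz _ (mul_mem (inv_mem b.2) a.2) h2
      exact Subtype.ext (inv_mul_eq_one.1 this).symm
    obtain ⟨a, ha⟩ := Finite.surjective_of_injective hf ⟨z * c * z⁻¹ * c⁻¹, hconjA z c⟩
    have ha' : z * (a : Q) * z⁻¹ * (a : Q)⁻¹ = z * c * z⁻¹ * c⁻¹ := congrArg Subtype.val ha
    set d := (a : Q)⁻¹ * c with hd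
    have hdz : z * d * z⁻¹ = d := by
      have h1 : z * c * z⁻¹ = z * (a : Q) * z⁻¹ * (a : Q)⁻¹ * c := by rw [ha', inv_mul_cancel_right]
      rw [show z * d * z⁻¹ = (z * (a : Q) * z⁻¹)⁻¹ * (z * c * z⁻¹) by rw [hd]; group, h1, hd]
      group
    have hdA : ∀ y ∈ A, y * d = d * y := fun y hy => by
      rw [hd, ← mul_assoc, hcomm y hy _ (inv_mem a.2), mul_assoc, hcy y hy, ← mul_assoc]
    have hd1 : d ∈ Subgroup.center Q := by
      refine Subgroup.mem_center_iff.2 fun g => ?_
      set e := g * d * g⁻¹ * d⁻¹ with he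
      have heA : e ∈ A := hconjA g d
      set b := z * g * z⁻¹ * g⁻¹ with hb
      have hbA : b ∈ A := hconjA z g
      have h2 : z * e * z⁻¹ = e := by
        have hzg : z * g * z⁻¹ = b * g := by rw [hb, inv_mul_cancel_right]
        rw [show z * e * z⁻¹ = (z * g * z⁻¹) * (z * d * z⁻¹) * (z * g * z⁻¹)⁻¹ * (z * d * z⁻¹)⁻¹ by rw [he]; group,
          hzg, hdz, show b * g * d * (b * g)⁻¹ * d⁻¹ = b * (g * d * g⁻¹ * d⁻¹) * (d * b⁻¹ * d⁻¹) by group,
          ← hdA _ (inv_mem hbA), mul_inv_cancel_right, ← he, hcomm b hbA e heA, mul_inv_cancel_right]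
      have he1 := hfpf z hz e heA h2
      rw [he, mul_inv_eq_one, mul_inv_eq_iff_eq_mul] at he1
      exact he1
    rw [hZ, Subgroup.mem_bot, hd, inv_mul_eq_one] at hd1
    exact hd1 ▸ a.2
  have hout : ∀ g : Q, g ∉ A → g ∉ Subgroup.centralizer (A : Set Q) := fun g hg h => hg (hCA g h)
  refine ⟨?_, ⟨q, hq, hAp, ?_⟩, hcomm, fun g hg => hfpf g (hout g hg), ?_⟩
  · refine Nat.lt_of_le_of_ne (Nat.one_le_iff_ne_zero.2 Subgroup.index_ne_zero_of_finite) fun h => hz ?_
    have : A = ⊤ := Subgroup.index_eq_one.1 h.symm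
    exact Subgroup.mem_centralizer_iff.2 fun y hy => hcomm y hy z (this ▸ Subgroup.mem_top z)
  · intro hqi
    obtain ⟨S, hS⟩ := hAp.exists_le_sylow
    haveI : Group.IsNilpotent (S : Subgroup Q) := S.2.isNilpotent
    have hne : A.subgroupOf (S : Subgroup Q) ≠ ⊥ := fun h => hA0 (by
      have h1 := Subgroup.subgroupOf_eq_bot.1 h
      exact le_bot_iff.1 (le_trans (le_inf le_rfl hS) h1.le_bot))
    have h2 := Hall.Struct.inf_center_ne_bot (A.subgroupOf (S : Subgroup Q)) hne
    obtain ⟨⟨s, hs⟩, hsne⟩ := Subgroup.ne_bot_iff_exists_ne_one.1 h2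
    have hs1 : s ≠ 1 := fun h => hsne (Subtype.ext h)
    obtain ⟨hsA, hsZ⟩ := Subgroup.mem_inf.1 hs
    obtain ⟨y, hy, hyA⟩ : ∃ y ∈ (S : Subgroup Q), y ∉ A := by
      by_contra hno
      push Not at hno
      exact S.not_dvd_index (hqi.trans (Subgroup.index_dvd_of_le hno))
    have hc : (⟨y, hy⟩ : (S : Subgroup Q)) * s = s * ⟨y, hy⟩ := Subgroup.mem_center_iff.1 hsZ _
    have hc' : y * (s : Q) = s * y := congrArg Subtype.val hc
    exact hs1 (Subtype.ext (hfpf y (hout y hyA) s (Subgroup.mem_subgroupOf.1 hsA) (by rw [hc', mul_inv_cancel_right])))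
  · obtain ⟨a, ha, ha1⟩ : ∃ a ∈ A, a ≠ 1 := by
      by_contra hno
      push Not at hno
      exact hA0 ((Subgroup.eq_bot_iff_forall A).2 hno)
    have hout' : ∀ g h : Q, g * a * g⁻¹ = h * a * h⁻¹ → g⁻¹ * h ∈ A := fun g h e => by
      by_contra hnot
      refine ha1 (hfpf _ (hout _ hnot) a ha ?_)
      rw [show g⁻¹ * h * a * (g⁻¹ * h)⁻¹ = g⁻¹ * (h * a * h⁻¹) * g by group, ← e]
      group
    let f : Q ⧸ A → A := fun x => ⟨x.out * a * x.out⁻¹, (inferInstance : A.Normal).conj_mem a ha _⟩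
    rw [Subgroup.index_eq_card]
    refine Nat.card_le_card_of_injective f fun x y hxy => ?_
    rw [← QuotientGroup.out_eq' x, ← QuotientGroup.out_eq' y, QuotientGroup.eq]
    exact hout' _ _ (congrArg Subtype.val hxy)

end CfsgLib.ThreeDeg
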